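import Cfsg.Agent.Char.Galois
import Cfsg.Agent.Char.Linear
import Cfsg.Agent.Char.Degree
import Cfsg.Agent.CharBase.Central

/-!
# Characters of small degree (helper69): tools for Blichfeldt's theorem
-/

set_option autoImplicit false
set_option linter.style.haveILetI false
set_option linter.unusedSectionVars false

namespace Cfsg.Agent.H69

open Subgroup Cfsg Cfsg.Agent.CharBase Cfsg.Agent.Char
open scoped ComplexConjugate

universe u

variable {G : Type u} [Group G] [Finite G]

theorem isIntegral_natCast_C (n : ℕ) : IsIntegral ℤ (n : ℂ) := by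
  have := isIntegral_algebraMap (R := ℤ) (A := ℂ) (x := (n : ℤ))
  simpa using this

theorem char_commutator {ψ : G → ℂ} (hψ : IsCharacter G ψ) {x : G} (hx : ψ x = ψ 1) (y : G) :
    ψ (x * y * x⁻¹ * y⁻¹) = ψ 1 := by
  obtain ⟨n, ρ, rfl⟩ := hψ
  have h1 : ρ.character 1 = (Module.finrank ℂ (Fin n → ℂ) : ℂ) := Representation.char_one ρ
  rw [h1] at hx ⊢
  rw [rep_character_eq_finrank_iff] at hx ⊢
  have hx1 : ρ x = 1 := hx
  have hx' : ρ x⁻¹ = 1 := by
    have : ρ x⁻¹ * ρ x = 1 := by rw [← map_mul, inv_mul_cancel, map_one]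
    rwa [hx1, mul_one] at this
  rw [map_mul, map_mul, map_mul, hx1, hx', one_mul, mul_one, ← map_mul, mul_inv_cancel, map_one]
  rfl

theorem char_commutator' {ψ : G → ℂ} (hψ : IsCharacter G ψ) {y : G} (hy : ψ y = ψ 1) (x : G) :
    ψ (x * y * x⁻¹ * y⁻¹) = ψ 1 := by
  obtain ⟨n, ρ, rfl⟩ := hψ
  have h1 : ρ.character 1 = (Module.finrank ℂ (Fin n → ℂ) : ℂ) := Representation.char_one ρ
  rw [h1] at hy ⊢
  rw [rep_character_eq_finrank_iff] at hy ⊢
  have hy1 : ρ y = 1 := hy
  have hy' : ρ y⁻¹ = 1 := by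
    have : ρ y⁻¹ * ρ y = 1 := by rw [← map_mul, inv_mul_cancel, map_one]
    rwa [hy1, mul_one] at this
  rw [map_mul, map_mul, map_mul, hy1, hy', mul_one, mul_one, ← map_mul, mul_inv_cancel, map_one]
  rfl

/-- a faithful character of degree smaller than all primes dividing `|H|`: `H` is abelian -/
theorem abelian_of_char {χ : G → ℂ} (hχ : IsCharacter G χ) (hf : ∀ g, χ g = χ 1 → g = 1) {n : ℕ}
    (hn : χ 1 = n) (hp : ∀ p : ℕ, p.Prime → p ∣ Nat.card G → n < p) (x y : G) : x * y = y * x := by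
  haveI := Fintype.ofFinite (IrrCharacter G)
  haveI := Fintype.ofFinite G
  obtain ⟨m, hm, hsum⟩ := exists_mult_of_isCharacter hχ
  have key : ∀ ψ : IrrCharacter G, m ψ ≠ 0 → ((ψ : G → ℂ) 1 = 1) := by
    intro ψ hmψ
    obtain ⟨d, hd⟩ := exists_nat_degree (irr_isCharacter ψ)
    have hdvd := degree_dvd_card ψ.2 hd
    have hle : d ≤ n := by
      have h1 : (n : ℂ) = ∑ φ : IrrCharacter G, (m φ : ℂ) * (φ : G → ℂ) 1 := by
        rw [← hn]
        conv_lhs => rw [hsum]
        simp [Finset.sum_apply]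
      choose e he using fun φ : IrrCharacter G => exists_nat_degree (irr_isCharacter φ)
      have h2 : (n : ℂ) = ((∑ φ : IrrCharacter G, m φ * e φ : ℕ) : ℂ) := by
        rw [h1]; push_cast
        exact Finset.sum_congr rfl (fun φ _ => by rw [he φ])
      have h3 : n = ∑ φ : IrrCharacter G, m φ * e φ := by exact_mod_cast h2
      have h4 : m ψ * e ψ ≤ n := by
        rw [h3]
        exact Finset.single_le_sum (f := fun φ => m φ * e φ) (fun _ _ => Nat.zero_le _)
          (Finset.mem_univ ψ)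
      have h5 : e ψ = d := by
        have := he ψ
        rw [hd] at this
        exact_mod_cast this.symm
      rw [h5] at h4
      have : 1 ≤ m ψ := Nat.one_le_iff_ne_zero.mpr hmψ
      nlinarith
    rcases Nat.eq_zero_or_pos d with h0 | hpos
    · exfalso
      rw [h0] at hd
      exact irr_one_ne_zero ψ.2 (by simpa using hd)
    · by_cases hd1 : d = 1
      · rw [hd, hd1]; simp
      · exfalso
        have hq := Nat.minFac_prime hd1
        have h1 := hp d.minFac hq ((Nat.minFac_dvd d).trans hdvd)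
        have h2 := Nat.minFac_le hpos
        omega
  have h1 : χ (x * y * x⁻¹ * y⁻¹) = χ 1 := by
    rw [hsum]
    simp only [Finset.sum_apply, Pi.smul_apply]
    refine Finset.sum_congr rfl (fun ψ _ => ?_)
    by_cases hmψ : m ψ = 0
    · rw [hmψ, zero_smul, zero_smul]
    · have h1 := key ψ hmψ
      have h2 : (ψ : G → ℂ) (x * y * x⁻¹ * y⁻¹) = (ψ : G → ℂ) 1 := by
        have hc := irr_isCharacter ψ
        have e1 : (ψ : G → ℂ) x * (ψ : G → ℂ) x⁻¹ = 1 := by
          rw [← linChar_mul hc h1, mul_inv_cancel, h1]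
        have e2 : (ψ : G → ℂ) y * (ψ : G → ℂ) y⁻¹ = 1 := by
          rw [← linChar_mul hc h1, mul_inv_cancel, h1]
        rw [linChar_mul hc h1, linChar_mul hc h1, linChar_mul hc h1, h1]
        linear_combination (ψ : G → ℂ) y * (ψ : G → ℂ) y⁻¹ * e1 + e2
      rw [h2]
  have h2 := hf _ h1
  rw [mul_inv_eq_one, mul_inv_eq_iff_eq_mul] at h2
  exact h2

/-- A character of degree `< p - 1` which is constant on generators of `⟨x⟩`, `|x| = p`, has `x`
in its kernel. -/
theorem char_rational {ψ : G → ℂ} (hψ : IsCharacter G ψ) {d p : ℕ} (hp : p.Prime)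
    (hd : ψ 1 = d) (hdp : d + 1 < p) {x : G} (hx : orderOf x = p)
    (hr : ∀ i : ℕ, i.Coprime p → ψ (x ^ i) = ψ x) : ψ x = ψ 1 := by
  classical
  haveI := Fintype.ofFinite G
  set A := zpowers x with hA
  haveI := Fintype.ofFinite A
  have hcardA : Nat.card A = p := by rw [hA, Nat.card_zpowers, hx]
  obtain ⟨a, ha⟩ := classInner_natCast (isCharacter_restrict hψ A) (isCharacter_one (G := A))
  -- the sum over A
  have hsum : ∑ g : A, ψ (g : G) = (d : ℂ) + (p - 1 : ℂ) * ψ x := by
    have h1 : ∀ g : A, g ≠ 1 → ψ (g : G) = ψ x := by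
      intro g hg
      obtain ⟨i, hi, hig⟩ := (mem_zpowers_iff_mem_range_orderOf (x := x)).mp g.2 |> Finset.mem_image.mp
      rw [← hig]
      apply hr
      rw [Nat.coprime_comm, hp.coprime_iff_not_dvd]
      intro hdvd
      apply hg
      apply Subtype.ext
      rw [← hig]
      show x ^ i = 1
      obtain ⟨j, rfl⟩ := hdvd
      rw [pow_mul, ← hx, pow_orderOf_eq_one, one_pow]
    rw [← Finset.add_sum_erase Finset.univ (fun g : A => ψ (g : G)) (Finset.mem_univ 1)]
    have h2 : ∑ g ∈ Finset.univ.erase (1 : A), ψ (g : G) =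
        ∑ g ∈ Finset.univ.erase (1 : A), ψ x := by
      refine Finset.sum_congr rfl (fun g hg => ?_)
      exact h1 g (Finset.ne_of_mem_erase hg)
    rw [h2, Finset.sum_const, Finset.card_erase_of_mem (Finset.mem_univ _), Finset.card_univ,
      ← Nat.card_eq_fintype_card, hcardA, nsmul_eq_mul, Nat.cast_sub hp.one_lt.le]
    have : ψ ((1 : A) : G) = d := by rw [← hd]; rfl
    rw [this]; push_cast; ring
  have hp0 : (p : ℂ) ≠ 0 := by exact_mod_cast hp.ne_zero
  have heq : (p : ℂ) * a = (d : ℂ) + (p - 1 : ℂ) * ψ x := by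
    rw [← hsum, ← ha]
    unfold classInner
    rw [hcardA]
    simp only [map_one, mul_one]
    rw [← mul_assoc, mul_inv_cancel₀ hp0, one_mul]
  -- a ≤ d
  obtain ⟨d', hd', hnorm⟩ := norm_le_of_isCharacter hψ x
  have hdd : d' = d := by rw [hd] at hd'; exact_mod_cast hd'.symm
  rw [hdd] at hnorm
  have hpc : ((p - 1 : ℕ) : ℂ) = (p : ℂ) - 1 := by rw [Nat.cast_sub hp.one_lt.le]; simp
  have had : a ≤ d := by
    have h1 : ‖(p : ℂ) * a‖ ≤ (d : ℝ) + (p - 1) * d := by
      rw [heq]
      refine (norm_add_le _ _).trans ?_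
      rw [norm_mul]
      have h2 : ‖(d : ℂ)‖ = d := by simp
      have h3 : ‖(p : ℂ) - 1‖ = (p : ℝ) - 1 := by
        rw [← hpc]
        rw [Complex.norm_natCast, Nat.cast_sub hp.one_lt.le]; simp
      rw [h2, h3]
      have h4 : (0 : ℝ) ≤ (p : ℝ) - 1 := by
        have : (1 : ℝ) ≤ p := by exact_mod_cast hp.one_lt.le
        linarith
      nlinarith
    rw [norm_mul, Complex.norm_natCast, Complex.norm_natCast] at h1
    have h2 : (p : ℝ) * a ≤ p * d := by linarith
    have h3 : (0 : ℝ) < p := by exact_mod_cast hp.pos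
    have h4 : (a : ℝ) ≤ d := le_of_mul_le_mul_left h2 h3
    exact_mod_cast h4
  -- integrality
  have hint : IsIntegral ℤ (ψ x) := isIntegral_of_isCharacter hψ x
  have hval : ((d - a : ℕ) : ℂ) / ((p - 1 : ℕ) : ℂ) = (a : ℂ) - ψ x := by
    have hp1 : ((p - 1 : ℕ) : ℂ) ≠ 0 := by
      have : p - 1 ≠ 0 := by have := hp.one_lt; omega
      exact_mod_cast this
    rw [div_eq_iff hp1, hpc, Nat.cast_sub had]
    linear_combination -heq
  have hdvd : (p - 1) ∣ (d - a) := by
    apply dvd_of_isIntegral_div (by have := hp.one_lt; omega)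
    rw [hval]
    exact (isIntegral_natCast_C a).sub hint
  have h0 : d - a = 0 := Nat.eq_zero_of_dvd_of_lt hdvd (by omega)
  have hda : d = a := by omega
  have hp1 : ((p : ℂ) - 1) ≠ 0 := by
    rw [← hpc]
    have : p - 1 ≠ 0 := by have := hp.one_lt; omega
    exact_mod_cast this
  rw [hd]
  rw [← hda] at heq
  have : ((p : ℂ) - 1) * (ψ x - d) = 0 := by linear_combination -heq
  rcases mul_eq_zero.mp this with h | h
  · exact absurd h hp1
  · exact sub_eq_zero.mp h

end Cfsg.Agent.H69
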