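import Cfsg.Agent.H69.Blich

/-!
# Blichfeldt's theorem: existence of commuting elements (helper69)
-/

set_option autoImplicit false
set_option linter.style.haveILetI false
set_option linter.unusedSectionVars false

namespace Cfsg.Agent.H69

open Subgroup Cfsg Cfsg.Agent.CharBase Cfsg.Agent.Char
open scoped ComplexConjugate

universe u

variable {G : Type u} [Group G] [Finite G]

/-- `k ≡ 1` on the `p'`-part -/
def KSet (G : Type u) [Group G] (p k : ℕ) : Prop :=
  k.Coprime (Nat.card G) ∧ ∀ g : G, ¬ p ∣ orderOf g → g ^ k = g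

theorem exists_KSet {p : ℕ} (hp : p.Prime) {i : ℕ} (hi : i.Coprime p) {x : G} (hx : orderOf x = p) :
    ∃ k, KSet G p k ∧ x ^ k = x ^ i := by
  set N := Nat.card G with hN
  have hN0 : N ≠ 0 := Nat.card_pos.ne'
  set P := p ^ N.factorization p with hP
  set M := N / P with hM
  have hPM : P * M = N := Nat.ordProj_mul_ordCompl_eq_self N p
  have hcopM : p.Coprime M := Nat.coprime_ordCompl hp hN0
  have hcop : P.Coprime M := Nat.Coprime.pow_left _ hcopM
  have hpN : p ∣ N := by rw [← hx]; exact orderOf_dvd_natCard x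
  have hpP : p ∣ P := by
    rw [hP]; exact dvd_pow_self p (hp.factorization_pos_of_dvd hN0 hpN).ne'
  obtain ⟨k, hk1, hk2⟩ := Nat.chineseRemainder hcop i 1
  refine ⟨k, ⟨?_, ?_⟩, ?_⟩
  · rw [← hN, ← hPM]
    apply Nat.Coprime.mul_right
    · rw [hP]
      apply Nat.Coprime.pow_right
      have h1 : k ≡ i [MOD p] := Nat.ModEq.of_dvd hpP hk1
      have h2 := Nat.ModEq.gcd_eq h1
      rw [Nat.Coprime, h2]; exact hi
    · have h2 := Nat.ModEq.gcd_eq hk2
      rw [Nat.Coprime, h2, Nat.gcd_one_left]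
  · intro g hg
    have h1 : orderOf g ∣ M := by
      have h2 : orderOf g ∣ P * M := by rw [hPM]; exact orderOf_dvd_natCard g
      have h3 : (orderOf g).Coprime P := by
        rw [hP]; exact Nat.Coprime.pow_right _ (hp.coprime_iff_not_dvd.mpr hg).symm
      exact h3.dvd_of_dvd_mul_left h2
    have h2 : k ≡ 1 [MOD orderOf g] := Nat.ModEq.of_dvd h1 hk2
    calc g ^ k = g ^ 1 := pow_eq_pow_iff_modEq.mpr h2
      _ = g := pow_one g
  · apply pow_eq_pow_iff_modEq.mpr
    rw [hx]
    exact Nat.ModEq.of_dvd hpP hk1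

/-- the Galois trick -/
theorem fixed_or_fixed {p q k l : ℕ} (hk : KSet G p k) (hl : KSet G q l)
    (hno : ∀ g : G, ¬ p ∣ orderOf g ∨ ¬ q ∣ orderOf g) (ψ : IrrCharacter G) :
    (∀ g, (ψ : G → ℂ) (g ^ k) = (ψ : G → ℂ) g) ∨ (∀ g, (ψ : G → ℂ) (g ^ l) = (ψ : G → ℂ) g) := by
  classical
  haveI := Fintype.ofFinite G
  set f : G → ℂ := (ψ : G → ℂ) with hf
  set fk : IrrCharacter G := ⟨fun g => f (g ^ k), isIrrCharacter_pow ψ.2 hk.1⟩ with hfk
  set fl : IrrCharacter G := ⟨fun g => f (g ^ l), isIrrCharacter_pow ψ.2 hl.1⟩ with hfl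
  have hzero : classInner (f - (fk : G → ℂ)) (f - (fl : G → ℂ)) = 0 := by
    unfold classInner
    rw [Finset.sum_eq_zero, mul_zero]
    intro g _
    rcases hno g with h | h
    · have : (f - (fk : G → ℂ)) g = 0 := by
        show f g - f (g ^ k) = 0
        rw [hk.2 g h, sub_self]
      rw [this, zero_mul]
    · have : (f - (fl : G → ℂ)) g = 0 := by
        show f g - f (g ^ l) = 0
        rw [hl.2 g h, sub_self]
      rw [this, map_zero, mul_zero]
  rw [classInner_sub_left, classInner_sub_right, classInner_sub_right] at hzero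
  by_contra hcon
  push Not at hcon
  obtain ⟨⟨g₁, h₁⟩, ⟨g₂, h₂⟩⟩ := hcon
  have hne1 : fk ≠ ψ := by
    intro h
    apply h₁
    have := congrArg (fun φ : IrrCharacter G => (φ : G → ℂ) g₁) h
    exact this
  have hne2 : ψ ≠ fl := by
    intro h
    apply h₂
    have := congrArg (fun φ : IrrCharacter G => (φ : G → ℂ) g₂) h
    exact this.symm
  have e1 : classInner f f = 1 := classInner_irr_self ψ
  have e2 : classInner f (fl : G → ℂ) = 0 := classInner_irr_of_ne hne2
  have e3 : classInner (fk : G → ℂ) f = 0 := classInner_irr_of_ne hne1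
  obtain ⟨m, hm⟩ := classInner_natCast (irr_isCharacter fk) (irr_isCharacter fl)
  rw [e1, e2, e3, hm] at hzero
  have : ((1 + m : ℕ) : ℂ) = 0 := by push_cast; linear_combination hzero
  have : 1 + m = 0 := by exact_mod_cast this
  omega

/-- **Key lemma**: a group with a faithful character of degree `n` whose order is divisible by
two primes `p, q > n + 1` contains an element of order `pq`. -/
theorem exists_commuting {χ : G → ℂ} (hχ : IsCharacter G χ) (hf : ∀ g, χ g = χ 1 → g = 1) {n : ℕ}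
    (hn : χ 1 = n) {p q : ℕ} (hp : p.Prime) (hq : q.Prime) (hpq : p ≠ q) (hpn : n + 1 < p)
    (hqn : n + 1 < q) (hpG : p ∣ Nat.card G) (hqG : q ∣ Nat.card G) :
    ∃ g : G, p ∣ orderOf g ∧ q ∣ orderOf g := by
  classical
  haveI := Fintype.ofFinite (IrrCharacter G)
  haveI := Fintype.ofFinite G
  haveI : Fact p.Prime := ⟨hp⟩
  haveI : Fact q.Prime := ⟨hq⟩
  by_contra hcon
  push Not at hcon
  have hno : ∀ g : G, ¬ p ∣ orderOf g ∨ ¬ q ∣ orderOf g := by
    intro g
    by_cases h : p ∣ orderOf g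
    · exact Or.inr (hcon g h)
    · exact Or.inl h
  obtain ⟨x, hx⟩ := exists_prime_orderOf_dvd_card' p hpG
  obtain ⟨y, hy⟩ := exists_prime_orderOf_dvd_card' q hqG
  obtain ⟨m, hm, hsum⟩ := exists_mult_of_isCharacter hχ
  have hdeg : ∀ ψ : IrrCharacter G, m ψ ≠ 0 → ∃ d : ℕ, (ψ : G → ℂ) 1 = d ∧ d ≤ n := by
    intro ψ hmψ
    choose e he using fun φ : IrrCharacter G => exists_nat_degree (irr_isCharacter φ)
    refine ⟨e ψ, he ψ, ?_⟩
    have h1 : (n : ℂ) = ∑ φ : IrrCharacter G, (m φ : ℂ) * (φ : G → ℂ) 1 := by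
      rw [← hn]
      conv_lhs => rw [hsum]
      simp [Finset.sum_apply]
    have h2 : (n : ℂ) = ((∑ φ : IrrCharacter G, m φ * e φ : ℕ) : ℂ) := by
      rw [h1]; push_cast
      exact Finset.sum_congr rfl (fun φ _ => by rw [he φ])
    have h3 : n = ∑ φ : IrrCharacter G, m φ * e φ := by exact_mod_cast h2
    have h4 : m ψ * e ψ ≤ n := by
      rw [h3]
      exact Finset.single_le_sum (f := fun φ => m φ * e φ) (fun _ _ => Nat.zero_le _)
        (Finset.mem_univ ψ)
    have : 1 ≤ m ψ := Nat.one_le_iff_ne_zero.mpr hmψ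
    nlinarith
  have key : ∀ ψ : IrrCharacter G, m ψ ≠ 0 →
      (ψ : G → ℂ) x = (ψ : G → ℂ) 1 ∨ (ψ : G → ℂ) y = (ψ : G → ℂ) 1 := by
    intro ψ hmψ
    obtain ⟨d, hd, hdn⟩ := hdeg ψ hmψ
    by_cases hall : ∀ k, KSet G p k → ∀ g, (ψ : G → ℂ) (g ^ k) = (ψ : G → ℂ) g
    · left
      refine char_rational (irr_isCharacter ψ) hp hd (by omega) hx (fun i hi => ?_)
      obtain ⟨k, hk, hxk⟩ := exists_KSet hp hi hx
      rw [← hxk]; exact hall k hk x
    · right
      push Not at hall
      obtain ⟨k, hk, g, hg⟩ := hall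
      refine char_rational (irr_isCharacter ψ) hq hd (by omega) hy (fun i hi => ?_)
      obtain ⟨l, hl, hyl⟩ := exists_KSet hq hi hy
      rw [← hyl]
      rcases fixed_or_fixed hk hl hno ψ with h | h
      · exact absurd (h g) hg
      · exact h y
  have h1 : χ (x * y * x⁻¹ * y⁻¹) = χ 1 := by
    rw [hsum]
    simp only [Finset.sum_apply, Pi.smul_apply]
    refine Finset.sum_congr rfl (fun ψ _ => ?_)
    by_cases hmψ : m ψ = 0
    · rw [hmψ, zero_smul, zero_smul]
    · rcases key ψ hmψ with h | h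
      · rw [char_commutator (irr_isCharacter ψ) h]
      · rw [char_commutator' (irr_isCharacter ψ) h]
  have h2 := hf _ h1
  rw [mul_inv_eq_one, mul_inv_eq_iff_eq_mul] at h2
  have h3 : orderOf (x * y) = p * q := by
    have hc : Commute x y := h2
    rw [hc.orderOf_mul_eq_mul_orderOf_of_coprime, hx, hy]
    rw [hx, hy]; exact (Nat.coprime_primes hp hq).mpr hpq
  exact hcon (x * y) (by rw [h3]; exact dvd_mul_right _ _) (by rw [h3]; exact dvd_mul_left _ _)

end Cfsg.Agent.H69
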