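import Cfsg.Agent.H69.Blich2
import Cfsg.Agent.H69.CoprimeZ
import Cfsg.Agent.S0581
import Cfsg.Agent.Hall.Basic

/-!
# Blichfeldt's theorem: Hall subgroups (helper69)
-/

set_option autoImplicit false
set_option linter.style.haveILetI false
set_option linter.unusedSectionVars false

namespace Cfsg.Agent.H69

open Subgroup Cfsg Cfsg.Agent.CharBase Cfsg.Agent.Char
open scoped Pointwise

universe u

variable {G : Type u} [Group G] [Finite G]

/-- `|LS : S| = |L : L ∩ S|` when `S` normalizes `L` -/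
theorem relIndex_sup_eq_left {L S : Subgroup G} (h : S ≤ normalizer (L : Set G)) :
    S.relIndex (S ⊔ L) = S.relIndex L := by
  have h1 : L.relIndex (S ⊔ L) = L.relIndex S := Cop.relIndex_sup_eq h
  have c1 : Nat.card L * L.relIndex (S ⊔ L) = Nat.card (S ⊔ L : Subgroup G) := by
    have := (L.subgroupOf (S ⊔ L)).card_mul_index
    rwa [Nat.card_congr (Subgroup.subgroupOfEquivOfLe (le_sup_right : L ≤ S ⊔ L)).toEquiv] at this
  have c2 : Nat.card S * S.relIndex (S ⊔ L) = Nat.card (S ⊔ L : Subgroup G) := by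
    have := (S.subgroupOf (S ⊔ L)).card_mul_index
    rwa [Nat.card_congr (Subgroup.subgroupOfEquivOfLe (le_sup_left : S ≤ S ⊔ L)).toEquiv] at this
  have c3 : Nat.card (S ⊓ L : Subgroup G) * L.relIndex S = Nat.card S := by
    have := ((S ⊓ L).subgroupOf S).card_mul_index
    rw [Nat.card_congr (Subgroup.subgroupOfEquivOfLe (inf_le_left : S ⊓ L ≤ S)).toEquiv] at this
    rw [← inf_relIndex_right L S, inf_comm L S]
    exact this
  have c4 : Nat.card (S ⊓ L : Subgroup G) * S.relIndex L = Nat.card L := by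
    have := ((S ⊓ L).subgroupOf L).card_mul_index
    rw [Nat.card_congr (Subgroup.subgroupOfEquivOfLe (inf_le_right : S ⊓ L ≤ L)).toEquiv] at this
    rw [← inf_relIndex_right]
    exact this
  have hpos2 : 0 < Nat.card S := Nat.card_pos
  have e1 : Nat.card S * S.relIndex (S ⊔ L) = Nat.card S * S.relIndex L := by
    rw [c2, ← c1, h1, ← c4, ← c3]; ring
  exact Nat.eq_of_mul_eq_mul_left hpos2 e1

/-- `G = NM` implies `|N : N ∩ M| = |G : M|` -/
theorem relIndex_eq_index_of_mul {M N : Subgroup G} (h : ∀ g : G, ∃ n ∈ N, ∃ m ∈ M, n * m = g) :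
    M.relIndex N = M.index := by
  have : Nat.card (N ⧸ M.subgroupOf N) = Nat.card (G ⧸ M) := by
    apply Nat.card_congr
    refine Equiv.ofBijective (fun q => Quotient.liftOn' q
      (fun n => (QuotientGroup.mk (n : G) : G ⧸ M)) ?_) ⟨?_, ?_⟩
    · intro a b hab
      rw [QuotientGroup.leftRel_apply] at hab
      exact QuotientGroup.eq.mpr hab
    · intro a b
      obtain ⟨a, rfl⟩ := QuotientGroup.mk_surjective a
      obtain ⟨b, rfl⟩ := QuotientGroup.mk_surjective b
      intro hab
      have hab' : (QuotientGroup.mk (a : G) : G ⧸ M) = QuotientGroup.mk (b : G) := hab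
      have h1 := QuotientGroup.eq.mp hab'
      exact QuotientGroup.eq.mpr h1
    · intro g
      obtain ⟨g, rfl⟩ := QuotientGroup.mk_surjective g
      obtain ⟨n, hn, m, hm, rfl⟩ := h g
      refine ⟨QuotientGroup.mk ⟨n, hn⟩, ?_⟩
      show (QuotientGroup.mk n : G ⧸ M) = QuotientGroup.mk (n * m)
      rw [QuotientGroup.eq]
      have e : n⁻¹ * (n * m) = m := by group
      rw [e]; exact hm
  rw [relIndex, index_eq_card, index_eq_card, this]

/-- Extending a nilpotent Hall subgroup by a `p`-group on top. -/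
theorem exists_hall_extend (π : ℕ → Prop) {p : ℕ} [hp : Fact p.Prime] (hpπ : π p)
    (K : Subgroup G) [K.Normal] {j : ℕ} (hK : K.index = p ^ j) (H₁ : Subgroup K)
    (hnil : Group.IsNilpotent H₁) (h1 : ∀ q : ℕ, q.Prime → q ∣ Nat.card H₁ → π q)
    (h2 : ∀ q : ℕ, q.Prime → q ∣ H₁.index → ¬ π q) :
    ∃ H : Subgroup G, (∀ q : ℕ, q.Prime → q ∣ Nat.card H → π q) ∧
      (∀ q : ℕ, q.Prime → q ∣ H.index → ¬ π q) := by
  set L : Subgroup G := H₁.map K.subtype with hL
  have hLK : L ≤ K := map_subtype_le H₁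
  set N : Subgroup G := normalizer (L : Set G) with hN
  have hcardL : Nat.card L = Nat.card H₁ := Cop.card_map_subtype _
  -- Frattini
  have hfrat : K ⊔ N = ⊤ := by
    rw [eq_top_iff]
    intro g _
    have hcop : (Nat.card H₁).Coprime H₁.index := by
      apply Nat.coprime_of_dvd
      intro q hq hq1 hq2
      exact h2 q hq hq2 (h1 q hq hq1)
    set H₂ : Subgroup K := (MulAut.conj g • L).subgroupOf K with hH₂
    have hle : MulAut.conj g • L ≤ K := by
      intro y hy
      rw [Hall.mem_conj_smul] at hy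
      have h3 := (inferInstance : K.Normal).conj_mem _ (hLK hy) g
      have e : g * (g⁻¹ * y * g) * g⁻¹ = y := by group
      rwa [e] at h3
    have hcard2 : Nat.card H₂ = Nat.card H₁ := by
      rw [hH₂, Nat.card_congr (subgroupOfEquivOfLe hle).toEquiv, ← hcardL]
      exact (Nat.card_congr (Subgroup.equivSMul (MulAut.conj g) L).toEquiv).symm
    obtain ⟨x, hx⟩ := Cfsg.Agent.S0581.result H₁ H₂ hnil hcop (fun q _ hq => by rwa [hcard2] at hq)
    have hle2 : MulAut.conj g • L ≤ MulAut.conj (x : G) • L := by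
      intro y hy
      have h3 : (⟨y, hle hy⟩ : K) ∈ H₂ := hy
      have h4 := hx h3
      rw [Hall.mem_conj_smul] at h4 ⊢
      exact ⟨_, h4, rfl⟩
    have heq : MulAut.conj g • L = MulAut.conj (x : G) • L := by
      apply eq_of_le_of_card_ge hle2
      rw [← Nat.card_congr (Subgroup.equivSMul (MulAut.conj g) L).toEquiv,
        ← Nat.card_congr (Subgroup.equivSMul (MulAut.conj (x : G)) L).toEquiv]
    have hmem : (x : G)⁻¹ * g ∈ N := by
      rw [hN, mem_normalizer_iff]
      intro y
      have h3 : (x : G)⁻¹ * g * y * ((x : G)⁻¹ * g)⁻¹ ∈ L ↔ y ∈ L := by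
        have e1 : (x : G)⁻¹ * g * y * ((x : G)⁻¹ * g)⁻¹ = (x : G)⁻¹ * (g * y * g⁻¹) * x := by group
        rw [e1, ← Hall.mem_conj_smul, ← heq, Hall.mem_conj_smul]
        have e2 : g⁻¹ * (g * y * g⁻¹) * g = y := by group
        rw [e2]
      exact h3.symm
    have e : g = (x : G) * ((x : G)⁻¹ * g) := by group
    rw [e]
    exact mul_mem (mem_sup_left x.2) (mem_sup_right hmem)
  -- a Sylow subgroup of N
  obtain ⟨R⟩ : Nonempty (Sylow p N) := inferInstance
  set S : Subgroup G := (R : Subgroup N).map N.subtype with hS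
  have hSN : S ≤ N := map_subtype_le _
  have hSp : IsPGroup p S := R.2.map _
  have hKS : K ⊔ S = ⊤ := by
    rw [← index_eq_one]
    have hd1 : (K ⊔ S).index ∣ p ^ j := by rw [← hK]; exact index_dvd_of_le le_sup_left
    have hd2 : ¬ p ∣ (K ⊔ S).index := by
      intro hd
      have h3 : (K ⊔ S).index = (K ⊔ S).relIndex N := by
        symm
        apply relIndex_eq_index_of_mul
        intro g
        have hg : g ∈ K ⊔ N := by rw [hfrat]; exact mem_top g
        rw [sup_comm, mem_sup_of_normal_right] at hg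
        obtain ⟨n, hn, k, hk, rfl⟩ := hg
        exact ⟨n, hn, k, mem_sup_left hk, rfl⟩
      rw [h3] at hd
      have h4 : (K ⊔ S).relIndex N ∣ S.relIndex N := relIndex_dvd_of_le_left N le_sup_right
      have h5 : S.relIndex N = (R : Subgroup N).index := by
        rw [relIndex, hS, subgroupOf, comap_map_eq_self_of_injective N.subtype_injective]
      exact R.not_dvd_index (h5 ▸ hd.trans h4)
    rcases (Nat.dvd_prime_pow hp.out).mp hd1 with ⟨m, -, hm⟩
    rcases Nat.eq_zero_or_pos m with h0 | h0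
    · rw [hm, h0, pow_zero]
    · exfalso; apply hd2; rw [hm]; exact dvd_pow_self p h0.ne'
  refine ⟨S ⊔ L, ?_, ?_⟩
  · intro q hq hqd
    have h3 : Nat.card (S ⊔ L : Subgroup G) ∣ Nat.card S * Nat.card L := by
      have h4 : L.relIndex (S ⊔ L) = L.relIndex S := Cop.relIndex_sup_eq hSN
      have c1 : Nat.card L * L.relIndex (S ⊔ L) = Nat.card (S ⊔ L : Subgroup G) := by
        have := (L.subgroupOf (S ⊔ L)).card_mul_index
        rwa [Nat.card_congr (Subgroup.subgroupOfEquivOfLe (le_sup_right : L ≤ S ⊔ L)).toEquiv] at this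
      rw [← c1, h4, mul_comm]
      exact mul_dvd_mul (relIndex_dvd_card _ _) dvd_rfl
    rcases (Nat.Prime.dvd_mul hq).mp (hqd.trans h3) with h | h
    · obtain ⟨k, hk⟩ := (IsPGroup.iff_card).mp hSp
      rw [hk] at h
      have := (Nat.prime_dvd_prime_iff_eq hq hp.out).mp (hq.dvd_of_dvd_pow h)
      rw [this]; exact hpπ
    · rw [hcardL] at h; exact h1 q hq h
  · intro q hq hqd
    have hSK : S ⊔ L ≤ normalizer (K : Set G) := by rw [normalizer_eq_top]; exact le_top
    have h3 : (S ⊔ L) ⊔ K = ⊤ := by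
      rw [eq_top_iff, ← hKS]; exact sup_le le_sup_right (le_sup_left.trans le_sup_left)
    have h4 := relIndex_sup_eq_left hSK
    rw [h3, relIndex_top_right] at h4
    rw [h4] at hqd
    have h5 : (S ⊔ L).relIndex K ∣ L.relIndex K := relIndex_dvd_of_le_left K le_sup_right
    have h6 : L.relIndex K = H₁.index := by
      rw [relIndex, hL, subgroupOf, comap_map_eq_self_of_injective K.subtype_injective]
    rw [h6] at h5
    exact h2 q hq (hqd.trans h5)

end Cfsg.Agent.H69
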