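import Cfsg.Agent.H69.Blich3
import Cfsg.Agent.H69.Basic
import Mathlib.GroupTheory.Abelianization.Defs

/-!
# Blichfeldt's theorem (helper69)
-/

set_option autoImplicit false
set_option linter.style.haveILetI false
set_option linter.unusedSectionVars false

namespace Cfsg.Agent.H69

open Subgroup Cfsg Cfsg.Agent.CharBase Cfsg.Agent.Char
open scoped Pointwise

universe u

theorem blichfeldt (n : ℕ) (N : ℕ) : ∀ (G : Type u) [Group G] [Finite G], Nat.card G ≤ N →
    ∀ χ : G → ℂ, IsCharacter G χ → (∀ g, χ g = χ 1 → g = 1) → χ 1 = n →
    ∃ H : Subgroup G, (∀ q : ℕ, q.Prime → q ∣ Nat.card H → n + 1 < q) ∧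
      (∀ q : ℕ, q.Prime → q ∣ H.index → ¬ n + 1 < q) := by
  induction N with
  | zero => intro G _ _ hN; exact absurd (Nat.card_pos (α := G)) (by omega)
  | succ N ih =>
    intro G _ _ hN χ hχ hf hn
    -- π-subgroups are abelian
    have hab : ∀ H : Subgroup G, (∀ q : ℕ, q.Prime → q ∣ Nat.card H → n + 1 < q) →
        ∀ x ∈ H, ∀ y ∈ H, x * y = y * x := by
      intro H hH x hx y hy
      have h1 := abelian_of_char (G := H) (isCharacter_restrict hχ H)
        (fun g hg => Subtype.ext (hf g hg)) (n := n) hn
        (fun p hp hpd => by have := hH p hp hpd; omega) ⟨x, hx⟩ ⟨y, hy⟩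
      exact congrArg Subtype.val h1
    have hpab : ∀ (p : ℕ) [Fact p.Prime], n + 1 < p → ∀ P : Subgroup G, IsPGroup p P →
        ∀ x ∈ P, ∀ y ∈ P, x * y = y * x := by
      intro p hp hpn P hP
      apply hab
      intro q hq hqd
      obtain ⟨k, hk⟩ := (IsPGroup.iff_card).mp hP
      rw [hk] at hqd
      have := (Nat.prime_dvd_prime_iff_eq hq hp.out).mp (hq.dvd_of_dvd_pow hqd)
      rw [this]; exact hpn
    by_cases hcen : ∃ p : ℕ, p.Prime ∧ n + 1 < p ∧ ∃ z ∈ center G, orderOf z = p
    · obtain ⟨p, hp, hpn, z, hz, hzp⟩ := hcen
      haveI : Fact p.Prime := ⟨hp⟩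
      obtain ⟨P⟩ : Nonempty (Sylow p G) := inferInstance
      have hPc := hpab p hpn P P.2
      -- the transfer
      set V : G →* Abelianization (P : Subgroup G) :=
        MonoidHom.transfer (Abelianization.of : (P : Subgroup G) →* Abelianization (P : Subgroup G))
        with hV
      have hzkey : ∀ (k : ℕ) (g₀ : G), g₀⁻¹ * z ^ k * g₀ ∈ (P : Subgroup G) →
          g₀⁻¹ * z ^ k * g₀ = z ^ k := by
        intro k g₀ _
        have h1 : z ^ k ∈ center G := pow_mem hz k
        have h2 := mem_center_iff.mp h1 g₀
        rw [mul_assoc, ← h2, ← mul_assoc, inv_mul_cancel, one_mul]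
      have hVz : V z ≠ 1 := by
        rw [hV, MonoidHom.transfer_eq_pow _ _ hzkey]
        intro h1
        have h2 : (⟨z ^ (P : Subgroup G).index, MonoidHom.transfer_eq_pow_aux z hzkey⟩ :
            (P : Subgroup G)) ∈ (Abelianization.of : (P : Subgroup G) →* _).ker := h1
        rw [Abelianization.ker_of] at h2
        have h3 : _root_.commutator (P : Subgroup G) = ⊥ := by
          rw [_root_.commutator_def, Subgroup.commutator_eq_bot_iff_le_centralizer]
          intro x _
          rw [mem_centralizer_iff]
          intro y _
          exact Subtype.ext (hPc y y.2 x x.2)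
        rw [h3, mem_bot] at h2
        have h4 : z ^ (P : Subgroup G).index = 1 := congrArg Subtype.val h2
        have h5 := orderOf_dvd_of_pow_eq_one h4
        rw [hzp] at h5
        exact P.not_dvd_index h5
      set K := V.ker with hK
      have hKtop : K ≠ ⊤ := by
        intro h
        apply hVz
        have : z ∈ K := by rw [h]; exact mem_top z
        exact this
      have hKidx : ∃ j, K.index = p ^ j := by
        have h1 : K.index = Nat.card V.range := by rw [hK, Subgroup.index_ker]
        have h2 : IsPGroup p (Abelianization (P : Subgroup G)) :=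
          P.2.of_surjective Abelianization.of (QuotientGroup.mk'_surjective _)
        rw [h1]
        exact (IsPGroup.iff_card).mp (h2.to_subgroup V.range)
      obtain ⟨j, hj⟩ := hKidx
      have hcardK : Nat.card K ≤ N := by
        have h1 := K.card_mul_index
        have h2 : K.index ≠ 1 := by rw [Ne, index_eq_one]; exact hKtop
        have h3 : K.index ≠ 0 := index_ne_zero_of_finite
        have h4 : 0 < Nat.card K := Nat.card_pos
        have h5 : 2 ≤ K.index := by omega
        nlinarith
      obtain ⟨H₁, hH1, hH2⟩ := ih K hcardK (fun g => χ g) (isCharacter_restrict hχ K)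
        (fun g hg => Subtype.ext (hf g hg)) hn
      have hnil : Group.IsNilpotent H₁ := by
        have hc : ∀ x y : H₁, x * y = y * x := by
          intro x y
          have h1 := hab (H₁.map K.subtype) (fun q hq hqd => by
            rw [Cop.card_map_subtype] at hqd; exact hH1 q hq hqd) _ ⟨x, x.2, rfl⟩ _ ⟨y, y.2, rfl⟩
          exact Subtype.ext (Subtype.ext h1)
        letI : CommGroup H₁ := { (inferInstance : Group H₁) with mul_comm := hc }
        infer_instance
      exact exists_hall_extend (fun q => n + 1 < q) hpn K hj H₁ hnil hH1 hH2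
    · push Not at hcen
      by_cases hex : ∃ p : ℕ, p.Prime ∧ n + 1 < p ∧ p ∣ Nat.card G
      · obtain ⟨p, hp, hpn, hpG⟩ := hex
        haveI : Fact p.Prime := ⟨hp⟩
        -- the family of Hall subgroups of centralizers
        have hfam : ∀ (q : ℕ) (x : G), q.Prime → n + 1 < q → orderOf x = q →
            ∃ B : Subgroup G, B ≤ centralizer ({x} : Set G) ∧
              (∀ r : ℕ, r.Prime → r ∣ Nat.card B → n + 1 < r) ∧
              (∀ r : ℕ, r.Prime → r ∣ B.relIndex (centralizer ({x} : Set G)) → ¬ n + 1 < r) := by
          intro q x hq hqn hx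
          set C := centralizer ({x} : Set G) with hC
          have hCtop : C ≠ ⊤ := by
            intro h
            have h1 : x ∈ center G := by
              rw [mem_center_iff]
              intro g
              have : g ∈ C := by rw [h]; exact mem_top g
              exact (mem_cent_singleton.mp this).symm
            exact hcen q hq hqn x h1 hx
          have hcardC : Nat.card C ≤ N := by
            have h1 := C.card_mul_index
            have h2 : C.index ≠ 1 := by rw [Ne, index_eq_one]; exact hCtop
            have h3 : C.index ≠ 0 := index_ne_zero_of_finite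
            have h4 : 0 < Nat.card C := Nat.card_pos
            have h5 : 2 ≤ C.index := by omega
            nlinarith
          obtain ⟨H₁, hH1, hH2⟩ := ih C hcardC (fun g => χ g) (isCharacter_restrict hχ C)
            (fun g hg => Subtype.ext (hf g hg)) hn
          refine ⟨H₁.map C.subtype, map_subtype_le _, ?_, ?_⟩
          · intro r hr hrd
            rw [Cop.card_map_subtype] at hrd
            exact hH1 r hr hrd
          · intro r hr hrd
            rw [relIndex, subgroupOf, comap_map_eq_self_of_injective C.subtype_injective] at hrd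
            exact hH2 r hr hrd
        set F : Set (Subgroup G) := {B | ∃ x : G, ∃ q : ℕ, q.Prime ∧ n + 1 < q ∧ orderOf x = q ∧
          B ≤ centralizer ({x} : Set G) ∧ (∀ r : ℕ, r.Prime → r ∣ Nat.card B → n + 1 < r) ∧
          (∀ r : ℕ, r.Prime → r ∣ B.relIndex (centralizer ({x} : Set G)) → ¬ n + 1 < r)} with hF
        obtain ⟨x₀, hx₀⟩ := exists_prime_orderOf_dvd_card' p hpG
        have hFne : F.Nonempty := by
          obtain ⟨B, h1, h2, h3⟩ := hfam p x₀ hp hpn hx₀
          exact ⟨B, x₀, p, hp, hpn, hx₀, h1, h2, h3⟩
        obtain ⟨B, hBF, hBmax⟩ := Set.exists_max_image F (fun B => Nat.card B) (Set.toFinite F) hFne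
        obtain ⟨x, r, hr, hrn, hx, hBC, hBπ, hBi⟩ := hBF
        haveI : Fact r.Prime := ⟨hr⟩
        have hBab := hab B hBπ
        have hcardrel : ∀ {A C : Subgroup G}, A ≤ C → Nat.card A * A.relIndex C = Nat.card C := by
          intro A C h
          have := (A.subgroupOf C).card_mul_index
          rwa [Nat.card_congr (Subgroup.subgroupOfEquivOfLe h).toEquiv] at this
        have hcopr : ∀ {a m : ℕ}, (∀ q : ℕ, q.Prime → q ∣ a → n + 1 < q) →
            (∀ q : ℕ, q.Prime → q ∣ m → ¬ n + 1 < q) → a.Coprime m := by
          intro a m h1 h2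
          apply Nat.coprime_of_dvd
          intro q hq hqa hqm
          exact h2 q hq hqm (h1 q hq hqa)
        -- for y ∈ B of prime order, |C(y)|_π = |B|
        have hBy : ∀ (q : ℕ) (y : G), q.Prime → n + 1 < q → y ∈ B → orderOf y = q →
            ∀ a : ℕ, (∀ s : ℕ, s.Prime → s ∣ a → n + 1 < s) →
              a ∣ Nat.card (centralizer ({y} : Set G)) → a ∣ Nat.card B := by
          intro q y hq hqn hyB hy a ha hac
          obtain ⟨B', h1, h2, h3⟩ := hfam q y hq hqn hy
          have hle : Nat.card B' ≤ Nat.card B := hBmax B' ⟨y, q, hq, hqn, hy, h1, h2, h3⟩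
          have hBy' : B ≤ centralizer ({y} : Set G) := by
            intro b hb
            rw [mem_cent_singleton]
            exact hBab y hyB b hb
          have e1 := hcardrel h1
          have d1 : Nat.card B ∣ Nat.card B' := by
            have : Nat.card B ∣ Nat.card B' * B'.relIndex (centralizer ({y} : Set G)) := by
              rw [e1]; exact card_dvd_of_le hBy'
            exact (hcopr hBπ h3).dvd_of_dvd_mul_right this
          have d2 : Nat.card B = Nat.card B' :=
            le_antisymm (Nat.le_of_dvd Nat.card_pos d1) hle
          rw [d2]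
          rw [← e1] at hac
          exact (hcopr ha h3).dvd_of_dvd_mul_right hac
        have hpow : ∀ {q : ℕ}, q.Prime → n + 1 < q → ∀ k : ℕ, ∀ s : ℕ, s.Prime → s ∣ q ^ k → n + 1 < s := by
          intro q hq hqn k s hs hsd
          rw [(Nat.prime_dvd_prime_iff_eq hs hq).mp (hs.dvd_of_dvd_pow hsd)]; exact hqn
        -- full Sylow
        have hsyl : ∀ (q : ℕ), q.Prime → n + 1 < q → q ∣ Nat.card B → ¬ q ∣ B.index := by
          intro q hq hqn hqB hqi
          haveI : Fact q.Prime := ⟨hq⟩
          obtain ⟨y, hy⟩ := exists_prime_orderOf_dvd_card' q hqB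
          have hy' : orderOf (y : G) = q := by rw [← hy]; exact orderOf_submonoid y
          obtain ⟨S, hS⟩ := (IsPGroup.of_card (n := 1) (by rw [Nat.card_zpowers, hy', pow_one]) :
            IsPGroup q (zpowers (y : G))).exists_le_sylow
          have hyS : (y : G) ∈ (S : Subgroup G) := hS (mem_zpowers _)
          have hSC : (S : Subgroup G) ≤ centralizer ({(y : G)} : Set G) := by
            intro s hs
            rw [mem_cent_singleton]
            exact hpab q hqn S S.2 y hyS s hs
          obtain ⟨k, hk⟩ := (IsPGroup.iff_card).mp S.2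
          have h1 := hBy q y hq hqn y.2 hy' (q ^ k) (hpow hq hqn k) (by
            rw [← hk]; exact card_dvd_of_le hSC)
          have h2 := S.card_mul_index
          have h3 := B.card_mul_index
          rw [← h3, hk] at h2
          obtain ⟨c, hc⟩ := h1
          obtain ⟨d, hd⟩ := hqi
          have h4 : q ^ k * (S : Subgroup G).index = q ^ k * (c * (q * d)) := by
            rw [h2, hc, hd]; ring
          have h5 := Nat.eq_of_mul_eq_mul_left (pow_pos hq.pos k) h4
          apply S.not_dvd_index
          rw [h5]
          exact (dvd_mul_right q d).mul_left c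
        -- r divides |B|
        have hrB : r ∣ Nat.card B := by
          have h1 : r ∣ Nat.card (centralizer ({x} : Set G)) := by
            have hxC : x ∈ centralizer ({x} : Set G) := mem_cent_singleton.mpr rfl
            have := orderOf_dvd_natCard (⟨x, hxC⟩ : centralizer ({x} : Set G))
            rwa [Subgroup.orderOf_mk, hx] at this
          rw [← hcardrel hBC] at h1
          rcases (Nat.Prime.dvd_mul hr).mp h1 with h | h
          · exact h
          · exact absurd hrn (hBi r hr h)
        refine ⟨B, hBπ, ?_⟩
        intro q hq hqi hqn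
        haveI : Fact q.Prime := ⟨hq⟩
        have hqB : ¬ q ∣ Nat.card B := fun h => hsyl q hq hqn h hqi
        have hrq : r ≠ q := by rintro rfl; exact hqB hrB
        have hqG : q ∣ Nat.card G := by rw [← B.card_mul_index]; exact hqi.mul_left _
        have hrG : r ∣ Nat.card G := by rw [← B.card_mul_index]; exact hrB.mul_right _
        obtain ⟨g, hg1, hg2⟩ := exists_commuting hχ hf hn hr hq hrq hrn hqn hrG hqG
        -- x' of order r, y' of order q commuting
        set x' := g ^ (orderOf g / r) with hx'
        set y' := g ^ (orderOf g / q) with hy'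
        have hg0 : orderOf g ≠ 0 := (orderOf_pos g).ne'
        have hox : orderOf x' = r := orderOf_pow_orderOf_div hg0 hg1
        have hoy : orderOf y' = q := orderOf_pow_orderOf_div hg0 hg2
        have hcomm : x' * y' = y' * x' := (Commute.refl g).pow_pow _ _
        -- B contains a Sylow r-subgroup
        obtain ⟨R⟩ : Nonempty (Sylow r B) := inferInstance
        set R' : Subgroup G := (R : Subgroup B).map B.subtype with hR'
        have hR'p : IsPGroup r R' := R.2.map _
        have hR'i : ¬ r ∣ R'.index := by
          intro hd
          have hRB : R' ≤ B := map_subtype_le _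
          rw [← relIndex_mul_index hRB] at hd
          rcases (Nat.Prime.dvd_mul hr).mp hd with h | h
          · rw [relIndex, hR', subgroupOf, comap_map_eq_self_of_injective B.subtype_injective] at h
            exact R.not_dvd_index h
          · exact hsyl r hr hrn hrB h
        set T : Sylow r G := hR'p.toSylow hR'i with hT
        obtain ⟨T', hT'⟩ := (IsPGroup.of_card (n := 1) (by rw [Nat.card_zpowers, hox, pow_one]) :
            IsPGroup r (zpowers x')).exists_le_sylow
        obtain ⟨c, hc⟩ := MulAction.exists_smul_eq G T' T
        have hcx : c * x' * c⁻¹ ∈ B := by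
          have h1 : c * x' * c⁻¹ ∈ (T : Subgroup G) := by
            rw [← hc, Sylow.coe_subgroup_smul]
            exact ⟨x', hT' (mem_zpowers x'), rfl⟩
          exact (map_subtype_le (R : Subgroup B)) h1
        have hocx : orderOf (c * x' * c⁻¹) = r := by
          rw [← hox]; exact (MulAut.conj c).orderOf_eq x'
        have hocy : orderOf (c * y' * c⁻¹) = q := by
          rw [← hoy]; exact (MulAut.conj c).orderOf_eq y'
        have hmem : c * y' * c⁻¹ ∈ centralizer ({c * x' * c⁻¹} : Set G) := by
          rw [mem_cent_singleton]
          calc c * x' * c⁻¹ * (c * y' * c⁻¹) = c * (x' * y') * c⁻¹ := by group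
            _ = c * (y' * x') * c⁻¹ := by rw [hcomm]
            _ = _ := by group
        have h1 := hBy r (c * x' * c⁻¹) hr hrn hcx hocx q
          (fun s hs hsd => by rw [(Nat.prime_dvd_prime_iff_eq hs hq).mp hsd]; exact hqn) (by
            have := orderOf_dvd_natCard (⟨_, hmem⟩ : centralizer ({c * x' * c⁻¹} : Set G))
            rwa [Subgroup.orderOf_mk, hocy] at this)
        exact hqB h1
      · push Not at hex
        refine ⟨⊥, ?_, ?_⟩
        · intro q hq hqd
          rw [card_bot] at hqd
          exact absurd (Nat.dvd_one.mp hqd) hq.one_lt.ne'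
        · intro q hq hqd hqn
          rw [index_bot] at hqd
          exact hex q hq hqn hqd

end Cfsg.Agent.H69
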