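import Cfsg.Agent.H69.Blich
import Cfsg.Agent.S0176

/-!
# Nilpotent linear groups have abelian subgroups of index dividing `n!` (helper69)
-/

set_option autoImplicit false
set_option linter.style.haveILetI false
set_option linter.unusedSectionVars false

namespace Cfsg.Agent.H69

open Subgroup Cfsg Cfsg.Agent.CharBase Cfsg.Agent.Char

universe u

variable {G : Type u} [Group G] [Finite G]

theorem index_normalCore_dvd (T : Subgroup G) : T.normalCore.index ∣ (T.index).factorial := by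
  rw [Subgroup.normalCore_eq_ker, Subgroup.index_ker, index_eq_card]
  have : Nat.card (MulAction.toPermHom G (G ⧸ T)).range ∣ Nat.card (Equiv.Perm (G ⧸ T)) :=
    Subgroup.card_subgroup_dvd_card _
  rwa [Nat.card_perm] at this

theorem index_iInf_dvd {ι : Type*} (s : Finset ι) (N : ι → Subgroup G) (hN : ∀ i, (N i).Normal) :
    (⨅ i ∈ s, N i).index ∣ ∏ i ∈ s, (N i).index := by
  classical
  induction s using Finset.induction_on with
  | empty => simp
  | insert a s ha ih =>
    rw [Finset.prod_insert ha, Finset.iInf_insert]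
    have h1 : (N a ⊓ ⨅ i ∈ s, N i).index =
        (N a ⊓ ⨅ i ∈ s, N i).relIndex (⨅ i ∈ s, N i) * (⨅ i ∈ s, N i).index :=
      (relIndex_mul_index inf_le_right).symm
    rw [h1, inf_relIndex_right]
    haveI := hN a
    exact mul_dvd_mul (relIndex_dvd_index_of_normal _ _) ih

/-- Nilpotent group with a faithful character of degree `n`: abelian subgroup of index
dividing `n!`. -/
theorem exists_abelian_index_dvd (hnil : Group.IsNilpotent G) {χ : G → ℂ}
    (hχ : IsCharacter G χ) (hf : ∀ g, χ g = χ 1 → g = 1) {n : ℕ} (hn : χ 1 = n) :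
    ∃ B : Subgroup G, (∀ x ∈ B, ∀ y ∈ B, x * y = y * x) ∧ B.index ∣ n.factorial := by
  classical
  haveI := Fintype.ofFinite (IrrCharacter G)
  haveI := Fintype.ofFinite G
  obtain ⟨m, hm, hsum⟩ := exists_mult_of_isCharacter hχ
  choose T lam hT using fun ψ : IrrCharacter G => Cfsg.Agent.S0176.result (G := G) (ψ : G → ℂ) ψ.2
  -- values of induced character
  have hval : ∀ ψ : IrrCharacter G, ∀ g : G,
      (∀ x : G, ∃ h : x⁻¹ * g * x ∈ T ψ, lam ψ ⟨x⁻¹ * g * x, h⟩ = 1) →
      (ψ : G → ℂ) g = ((T ψ).index : ℂ) := by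
    intro ψ g hg
    rw [hT ψ]
    unfold indFun
    have h1 : ∀ x : G, extendByZero (T ψ) (fun h => ((lam ψ h : ℂˣ) : ℂ)) (x⁻¹ * g * x) = 1 := by
      intro x
      obtain ⟨h, hl⟩ := hg x
      have h2 : extendByZero (T ψ) (fun h => ((lam ψ h : ℂˣ) : ℂ)) ((⟨x⁻¹ * g * x, h⟩ : T ψ) : G) =
          ((lam ψ ⟨x⁻¹ * g * x, h⟩ : ℂˣ) : ℂ) :=
        Function.Injective.extend_apply Subtype.val_injective _ _ _
      rw [hl] at h2
      simpa using h2
    rw [Finset.sum_congr rfl (fun x _ => h1 x), Finset.sum_const, Finset.card_univ,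
      ← Nat.card_eq_fintype_card, nsmul_eq_mul, mul_one]
    have h3 := (T ψ).card_mul_index
    have h4 : (Nat.card (T ψ) : ℂ) ≠ 0 := by exact_mod_cast Nat.card_pos.ne'
    rw [← h3]
    push_cast
    rw [← mul_assoc, inv_mul_cancel₀ h4, one_mul]
  have hdeg : ∀ ψ : IrrCharacter G, (ψ : G → ℂ) 1 = ((T ψ).index : ℂ) := by
    intro ψ
    apply hval
    intro x
    have e : x⁻¹ * 1 * x = 1 := by group
    refine ⟨by rw [e]; exact one_mem _, ?_⟩
    have : (⟨x⁻¹ * 1 * x, by rw [e]; exact one_mem _⟩ : T ψ) = 1 := Subtype.ext e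
    rw [this, map_one]
  set s : Finset (IrrCharacter G) := Finset.univ.filter (fun ψ => m ψ ≠ 0) with hs
  set N : IrrCharacter G → Subgroup G := fun ψ => (T ψ).normalCore with hN
  set B : Subgroup G := ⨅ ψ ∈ s, N ψ with hB
  refine ⟨B, ?_, ?_⟩
  · intro a ha b hb
    have h1 : χ (a * b * a⁻¹ * b⁻¹) = χ 1 := by
      rw [hsum]
      simp only [Finset.sum_apply, Pi.smul_apply]
      refine Finset.sum_congr rfl (fun ψ _ => ?_)
      by_cases hmψ : m ψ = 0
      · rw [hmψ, zero_smul, zero_smul]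
      · have hψs : ψ ∈ s := by rw [hs, Finset.mem_filter]; exact ⟨Finset.mem_univ _, hmψ⟩
        have haN : a ∈ N ψ := by
          rw [hB, mem_iInf] at ha
          exact (mem_iInf.mp (ha ψ)) hψs
        have hbN : b ∈ N ψ := by
          rw [hB, mem_iInf] at hb
          exact (mem_iInf.mp (hb ψ)) hψs
        rw [hval ψ (a * b * a⁻¹ * b⁻¹), hdeg ψ]
        intro x
        have ha' : x⁻¹ * a * x ∈ T ψ := by
          have := (inferInstance : (T ψ).normalCore.Normal).conj_mem a haN x⁻¹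
          rw [inv_inv] at this
          exact Subgroup.normalCore_le _ this
        have hb' : x⁻¹ * b * x ∈ T ψ := by
          have := (inferInstance : (T ψ).normalCore.Normal).conj_mem b hbN x⁻¹
          rw [inv_inv] at this
          exact Subgroup.normalCore_le _ this
        have e : x⁻¹ * (a * b * a⁻¹ * b⁻¹) * x =
            (x⁻¹ * a * x) * (x⁻¹ * b * x) * (x⁻¹ * a * x)⁻¹ * (x⁻¹ * b * x)⁻¹ := by group
        have hmem : x⁻¹ * (a * b * a⁻¹ * b⁻¹) * x ∈ T ψ := by
          rw [e]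
          exact mul_mem (mul_mem (mul_mem ha' hb') (inv_mem ha')) (inv_mem hb')
        refine ⟨hmem, ?_⟩
        have e2 : (⟨x⁻¹ * (a * b * a⁻¹ * b⁻¹) * x, hmem⟩ : T ψ) =
            ⟨_, ha'⟩ * ⟨_, hb'⟩ * ⟨_, ha'⟩⁻¹ * ⟨_, hb'⟩⁻¹ := Subtype.ext e
        rw [e2, map_mul, map_mul, map_mul, map_inv, map_inv]
        set α := lam ψ ⟨_, ha'⟩
        set β := lam ψ ⟨_, hb'⟩
        rw [mul_comm α β, mul_inv_cancel_right, mul_inv_cancel]
    have h2 := hf _ h1
    rw [mul_inv_eq_one, mul_inv_eq_iff_eq_mul] at h2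
    exact h2
  · have h1 : B.index ∣ ∏ ψ ∈ s, (N ψ).index := index_iInf_dvd s N (fun ψ => inferInstance)
    have h2 : ∏ ψ ∈ s, (N ψ).index ∣ ∏ ψ ∈ s, ((T ψ).index).factorial :=
      Finset.prod_dvd_prod_of_dvd _ _ (fun ψ _ => index_normalCore_dvd (T ψ))
    have h3 : ∏ ψ ∈ s, ((T ψ).index).factorial ∣ (∑ ψ ∈ s, (T ψ).index).factorial :=
      Nat.prod_factorial_dvd_factorial_sum s _
    have h4 : ∑ ψ ∈ s, (T ψ).index ≤ n := by
      have e1 : (n : ℂ) = ((∑ ψ : IrrCharacter G, m ψ * (T ψ).index : ℕ) : ℂ) := by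
        rw [← hn]
        conv_lhs => rw [hsum]
        simp only [Finset.sum_apply, Pi.smul_apply]
        push_cast
        refine Finset.sum_congr rfl (fun ψ _ => ?_)
        rw [hdeg ψ, nsmul_eq_mul]
      have e2 : n = ∑ ψ : IrrCharacter G, m ψ * (T ψ).index := by exact_mod_cast e1
      rw [e2]
      calc ∑ ψ ∈ s, (T ψ).index ≤ ∑ ψ ∈ s, m ψ * (T ψ).index := by
            apply Finset.sum_le_sum
            intro ψ hψ
            rw [hs, Finset.mem_filter] at hψ
            exact Nat.le_mul_of_pos_left _ (Nat.pos_of_ne_zero hψ.2)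
        _ ≤ ∑ ψ : IrrCharacter G, m ψ * (T ψ).index :=
            Finset.sum_le_sum_of_subset (Finset.subset_univ s)
    exact h1.trans (h2.trans (h3.trans (Nat.factorial_dvd_factorial h4)))

end Cfsg.Agent.H69
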